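import Cfsg.Agent.Lib.Helper43.AG.GTCommon

/-!
# S3072, package [GT3]: `C_P(U) ≤ U` and `P ∩ O_{p',p}(N) = U` give `O_{p',p}(N) = U C(U)`.
-/

set_option autoImplicit false

namespace Cfsg.Agent.Lib.Helper34.AG

open Cfsg Cfsg.Agent.Lib.Helper33 Cfsg.Agent.Lib.Helper22.AG Cfsg.Agent.Lib.Helper43.AG

universe u

/-- [GT3] -/
theorem pkgGT3 : PkgGT3.{u} := by
  intro G _ _ p _ P U hP hUP hSyl hCU hPK
  have hU : IsPGroup p U := hP.to_le hUP
  have hmapSK := map_sylOf_inf hSyl (Cfsg.pPrimePCore p ↥(Nz U))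
  have hK := Cfsg.Agent.Lib.Helper49.pPrimePCore_eq_sup (sylOf hSyl)
  apply le_antisymm
  · -- `K = (S ⊓ K) ⊔ O_{p'}`
    have h1 : (Cfsg.pPrimePCore p ↥(Nz U)).map (Nz U).subtype =
        U ⊔ (Cfsg.pPrimeCore p ↥(Nz U)).map (Nz U).subtype := by
      conv_lhs => rw [hK]
      rw [Subgroup.map_sup, hmapSK]
      exact congrArg (· ⊔ _) hPK
    show (Cfsg.pPrimePCore p ↥(Nz U)).map (Nz U).subtype ≤ _
    rw [h1]
    exact sup_le_sup_left (map_pPrimeCore_le_centralizer U hU) _
  · apply sup_le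
    · exact u_le_K U hU
    · -- `C(U) = O_{p'}(C(U)) × (P ⊓ C(U))`
      set C : Subgroup ↥(Nz U) := (Subgroup.centralizer (U : Set G)).subgroupOf (Nz U) with hC
      have hCn : C.Normal := cent_normal U
      obtain ⟨Q, hQ⟩ := Cfsg.Agent.Lib.Helper49.exists_sylow_inf_subnormal (sylOf hSyl) C
        (Subgroup.Normal.isSubnormal hCn)
      -- elements of `Q` lie in `U`
      have hQU : ∀ x : ↥C, x ∈ (Q : Subgroup ↥C) → ((x : ↥(Nz U)) : G) ∈ U := by
        intro x hx
        rw [hQ, Subgroup.mem_subgroupOf, sylOf_coe, Subgroup.mem_subgroupOf] at hx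
        have hxC : ((x : ↥(Nz U)) : G) ∈ Subgroup.centralizer (U : Set G) :=
          Subgroup.mem_subgroupOf.mp x.2
        exact hCU ⟨hx.1, hxC⟩
      have hcent : (Q : Subgroup ↥C) ≤ Subgroup.center ↥C := by
        intro x hx
        rw [Subgroup.mem_center_iff]
        intro y
        have hyC : ((y : ↥(Nz U)) : G) ∈ Subgroup.centralizer (U : Set G) :=
          Subgroup.mem_subgroupOf.mp y.2
        have := (Subgroup.mem_centralizer_iff.mp hyC) _ (hQU x hx)
        apply Subtype.ext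
        apply Subtype.ext
        simpa using this.symm
      have hnc : Subgroup.normalizer ((Q : Subgroup ↥C) : Set ↥C) ≤
          Subgroup.centralizer ((Q : Subgroup ↥C) : Set ↥C) := by
        intro y _
        rw [Subgroup.mem_centralizer_iff]
        intro x hx
        exact (Subgroup.mem_center_iff.mp (hcent hx) y).symm
      have hcompl := Cfsg.Agent.Lib.Helper50.pPrimeCore_isComplement' Q hnc
      have htop : Cfsg.pPrimeCore p ↥C ⊔ (Q : Subgroup ↥C) = ⊤ := hcompl.sup_eq_top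
      have hCmap : C = (Cfsg.pPrimeCore p ↥C).map C.subtype ⊔
          ((Q : Subgroup ↥C)).map C.subtype := by
        rw [← Subgroup.map_sup, htop, ← MonoidHom.range_eq_map, Subgroup.range_subtype]
      have h1 : (Cfsg.pPrimeCore p ↥C).map C.subtype ≤ Cfsg.pPrimePCore p ↥(Nz U) :=
        (Cfsg.Agent.Lib.Helper22.pPrimeCore_map_subtype_le_of_normal p C).trans
          (Cfsg.Agent.Lib.Helper49.pPrimeCore_le_pPrimePCore p _)
      have h2 : ((Q : Subgroup ↥C)).map C.subtype ≤ Cfsg.pPrimePCore p ↥(Nz U) := by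
        rintro _ ⟨x, hx, rfl⟩
        exact ux_le_pPrimePCore U hU (Subgroup.mem_subgroupOf.mpr (hQU x hx))
      have h3 : C ≤ Cfsg.pPrimePCore p ↥(Nz U) := by
        rw [hCmap]; exact sup_le h1 h2
      have := Subgroup.map_mono (f := (Nz U).subtype) h3
      rwa [hC, cent_map] at this
end Cfsg.Agent.Lib.Helper34.AG
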